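/-
Orthonormal eigenbases of isometries with `T^r = 1` on Hermitian spaces over `F_{q²}`, when `r ∣ q + 1`.
-/
import Cfsg.Agent.Lib.Witt.HermModel
import Cfsg.Agent.Lib.PGLr.Linear

set_option autoImplicit false
set_option linter.unusedSectionVars false

namespace Cfsg.Agent.Lib.PGUr

open Polynomial Module Cfsg.Agent.Lib.MatConj.Semisimple Cfsg.Agent.Lib.MatConj.Tg
open Cfsg.Agent.Lib.HermCount.Field Cfsg.Agent.Lib.HermCount.Space Cfsg.Agent.Lib.Witt.HermModel
  Cfsg.Agent.Lib.PGLr

universe u

section eigen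

variable {F : Type u} [Field F] {V : Type u} [AddCommGroup V] [Module F V]

/-- A spanning family of eigenvectors. -/
theorem exists_eigen_family [FiniteDimensional F V] {r : ℕ} (hr : 0 < r) (hrF : (r : F) ≠ 0) {ω : F}
    (hω : IsPrimitiveRoot ω r) (T : V →ₗ[F] V) (hT : T ^ r = 1) :
    ∃ (κ : Type u) (_ : Fintype κ) (w : κ → V) (y : κ → F), (∀ k, y k ^ r = 1) ∧
      (∀ k, T (w k) = y k • w k) ∧ ∀ u, ∃ c : κ → F, u = ∑ k, c k • w k := by
  classical
  obtain ⟨κ, hκ, R, Φ, hD, hR⟩ := exists_decomp_root hr hrF hω T hT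
  choose y hy hRy using hR
  have hroot : ∀ k, AdjoinRoot.root (R k) = AdjoinRoot.of (R k) (y k) := by
    intro k
    have h1 : AdjoinRoot.mk (R k) (X - C (y k)) = 0 := by
      rw [AdjoinRoot.mk_eq_zero, hRy k]
    rw [map_sub, AdjoinRoot.mk_X, AdjoinRoot.mk_C, sub_eq_zero] at h1
    exact h1
  have hof : ∀ (k : κ) (a : AdjoinRoot (R k)), ∃ c : F, a = AdjoinRoot.of (R k) c := by
    intro k a
    induction a using AdjoinRoot.induction_on with
    | ih p =>
      refine ⟨p.eval (y k), ?_⟩
      change _ = AdjoinRoot.mk (R k) (C _)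
      rw [AdjoinRoot.mk_eq_mk, hRy k]
      exact X_sub_C_dvd_sub_C_eval
  refine ⟨κ, hκ, fun k => Φ.symm (Pi.single k 1), y, hy, ?_, ?_⟩
  · intro k
    apply Φ.injective
    funext l
    rw [hD.comm, map_smul, LinearEquiv.apply_symm_apply, Pi.smul_apply]
    by_cases hl : l = k
    · subst hl
      rw [Pi.single_eq_same, mul_one, hroot, ← AdjoinRoot.algebraMap_eq, Algebra.algebraMap_eq_smul_one]
    · rw [Pi.single_eq_of_ne hl, mul_zero, smul_zero]
  · intro u
    choose c hc using fun k => hof k (Φ u k)
    refine ⟨c, ?_⟩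
    apply Φ.injective
    funext l
    rw [hc l, map_sum, Finset.sum_apply, Finset.sum_eq_single l]
    · rw [map_smul, LinearEquiv.apply_symm_apply, Pi.smul_apply, Pi.single_eq_same,
        ← AdjoinRoot.algebraMap_eq, Algebra.algebraMap_eq_smul_one]
    · intro k _ hk
      rw [map_smul, LinearEquiv.apply_symm_apply, Pi.smul_apply, Pi.single_eq_of_ne hk.symm, smul_zero]
    · simp

variable [Fintype F] {q : ℕ} {h : V → V → F}

/-- Eigenvectors for different eigenvalues are orthogonal. -/
theorem orth_of_eigen (S : HSpace q h) (hF : Fintype.card F = q ^ 2) {r : ℕ} (hrq : r ∣ q + 1)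
    {T : V →ₗ[F] V} (hiso : ∀ x y, h (T x) (T y) = h x y) {v w : V} {y y' : F} (hv : T v = y • v)
    (hw : T w = y' • w) (hy' : y' ^ r = 1) (hne : y ≠ y') : h v w = 0 := by
  have h1 := hiso v w
  rw [hv, hw, S.smul_left, S.smul_right hF] at h1
  obtain ⟨t, ht⟩ := hrq
  have h2 : y' ^ (q + 1) = 1 := by rw [ht, pow_mul, hy', one_pow]
  by_contra h0
  have h3 : y * y' ^ q = 1 := by
    have h4 : (y * y' ^ q - 1) * h v w = 0 := by linear_combination h1
    have h5 := (mul_eq_zero.mp h4).resolve_right h0
    linear_combination h5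
  apply hne
  have h4 : y = y * y' ^ (q + 1) := by rw [h2, mul_one]
  rw [h4, pow_succ, ← mul_assoc, h3, one_mul]

/-- The eigenspaces are non-degenerate. -/
theorem eigenspace_nd [FiniteDimensional F V] (S : HSpace q h) (hF : Fintype.card F = q ^ 2) {r : ℕ} (hr : 0 < r)
    (hrF : (r : F) ≠ 0) {ω : F} (hω : IsPrimitiveRoot ω r) (hrq : r ∣ q + 1)
    (T : V →ₗ[F] V) (hiso : ∀ x y, h (T x) (T y) = h x y) (hT : T ^ r = 1) (y : F) :
    ∀ u ∈ LinearMap.ker (T - y • 1), (∀ v ∈ LinearMap.ker (T - y • 1), h u v = 0) → u = 0 := by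
  classical
  intro u hu huv
  have hu' : T u = y • u := by
    rw [LinearMap.mem_ker, LinearMap.sub_apply, sub_eq_zero] at hu
    exact hu
  obtain ⟨κ, hκ, w, y', hy', hw, hspan⟩ := exists_eigen_family hr hrF hω T hT
  apply S.nd
  intro z
  apply S.zero_of_zero hF
  obtain ⟨c, rfl⟩ := hspan z
  rw [sum_smul_left S]
  refine Finset.sum_eq_zero fun k _ => ?_
  by_cases hk : y' k = y
  · have hmem : w k ∈ LinearMap.ker (T - y • 1) := by
      rw [LinearMap.mem_ker, LinearMap.sub_apply, hw, hk]
      simp
    rw [S.zero_of_zero hF (huv _ hmem), mul_zero]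
  · have hyr : y ^ r = 1 ∨ y ^ r ≠ 1 := em _
    rcases hyr with hyr | hyr
    · rw [orth_of_eigen S hF hrq hiso (hw k) hu' hyr hk, mul_zero]
    · -- `u` has to vanish
      have hu0 : u = 0 := by
        have h1 : ∀ s : ℕ, (T ^ s) u = y ^ s • u := by
          intro s
          induction s with
          | zero => simp
          | succ s ih =>
            rw [pow_succ', Module.End.mul_apply, ih, map_smul, hu', smul_smul, pow_succ]
        have h2 := h1 r
        rw [hT, Module.End.one_apply] at h2
        have h3 : (y ^ r - 1) • u = 0 := by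
          rw [sub_smul, ← h2, one_smul, sub_self]
        exact (smul_eq_zero.mp h3).resolve_left (sub_ne_zero.mpr hyr)
      rw [hu0]
      have := S.zero_right hF (w k)
      rw [this, mul_zero]

/-- A non-isotropic eigenvector. -/
theorem exists_nonisotropic_eigen [FiniteDimensional F V] [Nontrivial V] (S : HSpace q h)
    (hF : Fintype.card F = q ^ 2) {r : ℕ} (hr : 0 < r) (hrF : (r : F) ≠ 0) {ω : F} (hω : IsPrimitiveRoot ω r)
    (hrq : r ∣ q + 1) (T : V →ₗ[F] V) (hiso : ∀ x y, h (T x) (T y) = h x y) (hT : T ^ r = 1) :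
    ∃ (v : V) (y : F), T v = y • v ∧ y ^ r = 1 ∧ h v v ≠ 0 := by
  classical
  obtain ⟨κ, hκ, w, y', hy', hw, hspan⟩ := exists_eigen_family hr hrF hω T hT
  obtain ⟨k, hk⟩ : ∃ k, w k ≠ 0 := by
    by_contra hall
    push Not at hall
    obtain ⟨z, hz⟩ := exists_ne (0 : V)
    obtain ⟨c, hc⟩ := hspan z
    apply hz
    rw [hc]
    exact Finset.sum_eq_zero fun k _ => by rw [hall k, smul_zero]
  set W := LinearMap.ker (T - y' k • 1) with hW
  have SW := S.restrict W (eigenspace_nd S hF hr hrF hω hrq T hiso hT (y' k))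
  have hmem : w k ∈ W := by
    rw [hW, LinearMap.mem_ker, LinearMap.sub_apply, hw]
    simp
  haveI : Nontrivial W := ⟨⟨⟨w k, hmem⟩, 0, fun h0 => hk (congrArg Subtype.val h0)⟩⟩
  obtain ⟨e, he⟩ := SW.exists_nonisotropic hF
  refine ⟨e.1, y' k, ?_, hy' k, he⟩
  have h5 : (T - y' k • 1) e.1 = 0 := LinearMap.mem_ker.mp e.2
  rw [LinearMap.sub_apply, sub_eq_zero] at h5
  exact h5

end eigen

section ortho

variable {F : Type u} [Field F] [Fintype F] {q : ℕ}

/-- Orthonormal eigenbases. -/
theorem exists_ortho_eigen (hF : Fintype.card F = q ^ 2) {r : ℕ} (hr : 0 < r) (hrF : (r : F) ≠ 0) {ω : F}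
    (hω : IsPrimitiveRoot ω r) (hrq : r ∣ q + 1) :
    ∀ (n : ℕ) (V : Type u) [AddCommGroup V] [Module F V] [Finite V] (h : V → V → F),
      HSpace q h → finrank F V = n → ∀ T : V →ₗ[F] V, (∀ x y, h (T x) (T y) = h x y) → T ^ r = 1 →
      ∃ (b : Fin n → V) (φ : Fin n → F), (∀ i j, h (b i) (b j) = if i = j then 1 else 0) ∧
        (∀ i, T (b i) = φ i • b i) ∧ ∀ i, φ i ^ r = 1 := by
  classical
  intro n
  induction n with
  | zero =>
    intro V _ _ _ h S hn T hiso hT
    exact ⟨fun i => i.elim0, fun i => i.elim0, fun i => i.elim0, fun i => i.elim0, fun i => i.elim0⟩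
  | succ n ih =>
    intro V _ _ _ h S hn T hiso hT
    haveI : FiniteDimensional F V := Module.Finite.of_finite
    have hnt : Nontrivial V := by
      apply Module.nontrivial_of_finrank_pos (R := F)
      omega
    obtain ⟨e₀, y, hy, hyr, he₀⟩ := exists_nonisotropic_eigen S hF hr hrF hω hrq T hiso hT
    obtain ⟨a, ha⟩ := exists_norm_one_scale S hF e₀ he₀
    set e := a • e₀ with he
    have hTe : T e = y • e := by
      rw [he, map_smul, hy, smul_comm]
    have hy0 : y ≠ 0 := by
      rintro rfl
      rw [zero_pow hr.ne'] at hyr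
      exact zero_ne_one hyr
    set K := perp S hF e with hK
    have hKnd : ∀ u ∈ K, (∀ v ∈ K, h u v = 0) → u = 0 := by
      intro u hu huv
      apply S.nd
      intro z
      have h1 : z - (h z e) • e ∈ K := by
        rw [mem_perp, S.sub_left, S.smul_left, ha]
        ring
      have h2 := huv _ h1
      have hue : h u e = 0 := hu
      rw [S.sub_right hF, S.smul_right hF, hue] at h2
      simpa using h2
    have SK := S.restrict K hKnd
    have hfinK : finrank F K = n := by
      let φ : V →ₗ[F] F :=
        { toFun := fun z => h z e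
          map_add' := fun x y => S.add_left _ _ _
          map_smul' := fun a x => by simpa using S.smul_left a x e }
      have hker : LinearMap.ker φ = K := rfl
      have hsurj : Function.Surjective φ := by
        intro t
        refine ⟨t • e, ?_⟩
        change h (t • e) e = t
        rw [S.smul_left, ha, mul_one]
      have h1 := LinearMap.finrank_range_add_finrank_ker φ
      rw [LinearMap.range_eq_top.mpr hsurj, finrank_top, finrank_self, hker, hn] at h1
      omega
    have hTK : ∀ x ∈ K, T x ∈ K := by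
      intro x hx
      rw [mem_perp] at hx ⊢
      have h1 : e = T (y⁻¹ • e) := by
        rw [map_smul, hTe, smul_smul, inv_mul_cancel₀ hy0, one_smul]
      rw [h1, hiso, S.smul_right hF, hx, mul_zero]
    let T' : K →ₗ[F] K := T.restrict hTK
    have hT'val : ∀ (s : ℕ) (x : K), (((T' ^ s) x : K) : V) = (T ^ s) x.1 := by
      intro s
      induction s with
      | zero => intro x; simp
      | succ s ih' =>
        intro x
        rw [pow_succ', Module.End.mul_apply, pow_succ', Module.End.mul_apply]
        change T (((T' ^ s) x : K) : V) = _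
        rw [ih']
    have hT' : T' ^ r = 1 := by
      apply LinearMap.ext
      intro x
      apply Subtype.ext
      rw [hT'val, hT]
      rfl
    obtain ⟨b', φ', hb', hφ', hφr⟩ := ih K (fun a b : K => h a b) SK hfinK T'
      (fun x y => hiso x.1 y.1) hT'
    refine ⟨Fin.cons e (fun i => (b' i : V)), Fin.cons y φ', ?_, ?_, ?_⟩
    · intro i j
      refine Fin.cases ?_ (fun i' => ?_) i <;> refine Fin.cases ?_ (fun j' => ?_) j
      · simpa using ha
      · have : h e (b' j' : V) = 0 := S.zero_of_zero hF (b' j').2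
        simpa [Fin.succ_ne_zero, (Fin.succ_ne_zero j').symm] using this
      · have : h (b' i' : V) e = 0 := (b' i').2
        simpa [Fin.succ_ne_zero] using this
      · have := hb' i' j'
        simpa using this
    · intro i
      refine Fin.cases ?_ (fun i' => ?_) i
      · simpa using hTe
      · have h5 : T (b' i').1 = φ' i' • (b' i').1 := congrArg Subtype.val (hφ' i')
        simpa using h5
    · intro i
      refine Fin.cases ?_ (fun i' => ?_) i
      · simpa using hyr
      · simpa using hφr i'

/-- A linear isomorphism from an orthonormal family. -/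
theorem exists_ortho_equiv {V : Type u} [AddCommGroup V] [Module F V] [Finite V] {h : V → V → F} (S : HSpace q h)
    (hF : Fintype.card F = q ^ 2) (n : ℕ) (hn : finrank F V = n) (b : Fin n → V)
    (hb : ∀ i j, h (b i) (b j) = if i = j then 1 else 0) :
    ∃ ψ : (Fin n → F) ≃ₗ[F] V, (∀ i, ψ (Pi.single i 1) = b i) ∧
      ∀ x y, h (ψ x) (ψ y) = Cfsg.hermForm n F q x y := by
  classical
  haveI : FiniteDimensional F V := Module.Finite.of_finite
  let f : (Fin n → F) →ₗ[F] V := Fintype.linearCombination F b
  have hf : ∀ x, f x = ∑ i, x i • b i := fun x => rfl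
  have hfb : ∀ x j, h (f x) (b j) = x j := by
    intro x j
    rw [hf, sum_smul_left S, Finset.sum_eq_single j]
    · rw [hb, if_pos rfl, mul_one]
    · intro i _ hi
      rw [hb, if_neg hi, mul_zero]
    · simp
  have hinj : Function.Injective f := by
    rw [injective_iff_map_eq_zero]
    intro x hx
    funext j
    have := hfb x j
    rw [hx, S.zero_left] at this
    exact this.symm
  have hiso : ∀ x y, h (f x) (f y) = Cfsg.hermForm n F q x y := by
    intro x y
    conv_lhs => rw [hf x]
    rw [sum_smul_left S]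
    unfold Cfsg.hermForm
    refine Finset.sum_congr rfl fun i _ => ?_
    rw [S.conj (f y) (b i), hfb]
  refine ⟨LinearMap.linearEquivOfInjective f hinj (by rw [hn]; simp), fun i => ?_, fun x y => ?_⟩
  · change f _ = _
    rw [hf, Finset.sum_eq_single i]
    · simp
    · intro j _ hj
      simp [Pi.single_apply, hj]
    · simp
  · simpa using hiso x y

end ortho

end Cfsg.Agent.Lib.PGUr
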