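/-
The extension-field model of isometries `T` with `T^r = λ`, when `X^r - λ` is irreducible.
-/
import Cfsg.Agent.Lib.PGUr.Eigen

set_option autoImplicit false
set_option linter.unusedSectionVars false

namespace Cfsg.Agent.Lib.PGUr

open Polynomial Module
open Cfsg.Agent.Lib.HermCount.Field Cfsg.Agent.Lib.HermCount.Space Cfsg.Agent.Lib.Witt.HermModel
open Cfsg.Agent.Lib.HermCount.Lines (herm_space)
open Cfsg.Agent.Lib.MatConj.Semisimple

universe u

section functional

variable {F : Type u} [Field F] [Fintype F] {q : ℕ} {E : Type u} [Field E] [Fintype E] [Algebra F E] {Q : ℕ}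

/-- An equivariant functional. -/
theorem exists_psi (hF : Fintype.card F = q ^ 2) (hE : Fintype.card E = Q ^ 2)
    (hQ : ∀ c : F, (algebraMap F E c) ^ Q = algebraMap F E (c ^ q)) :
    ∃ ψ : E →ₗ[F] F, ψ 1 ≠ 0 ∧ ∀ a, ψ (a ^ Q) = (ψ a) ^ q := by
  classical
  haveI : FiniteDimensional F E := Module.Finite.of_finite
  have hQ2 := two_le hE
  obtain ⟨c, hc⟩ : ∃ e : F, e + e ^ q ≠ 0 := by
    by_contra hcon
    push Not at hcon
    obtain ⟨z, hz⟩ := exists_frob_ne hF
    apply hz
    have h1 := hcon 1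
    rw [one_pow] at h1
    have h2 : (2 : F) = 0 := by linear_combination h1
    have h3 := hcon z
    linear_combination h3 - z * h2
  obtain ⟨φ1, hφ1⟩ : ∃ φ : E →ₗ[F] F, φ 1 ≠ 0 := by
    by_contra hcon
    push Not at hcon
    have := (Module.forall_dual_apply_eq_zero_iff F (1 : E)).1 hcon
    exact one_ne_zero this
  let φ0 : E →ₗ[F] F := (c / φ1 1) • φ1
  have hφ0 : φ0 1 = c := by
    simp only [φ0, LinearMap.smul_apply, smul_eq_mul]
    exact div_mul_cancel₀ _ hφ1
  let ψ : E →ₗ[F] F :=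
    { toFun := fun a => φ0 a + (φ0 (a ^ Q)) ^ q
      map_add' := fun a b => by
        rw [map_add, frob_add hE, map_add, frob_add hF]
        ring
      map_smul' := fun d a => by
        have h1 : (d • a) ^ Q = d ^ q • a ^ Q := by
          rw [Algebra.smul_def, mul_pow, hQ, Algebra.smul_def]
        rw [h1, map_smul, map_smul, smul_eq_mul, smul_eq_mul, mul_pow, frob_frob hF]
        simp only [RingHom.id_apply, smul_eq_mul]
        ring }
  have hψ : ∀ a, ψ a = φ0 a + (φ0 (a ^ Q)) ^ q := fun a => rfl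
  refine ⟨ψ, ?_, ?_⟩
  · rw [hψ, one_pow, hφ0]
    exact hc
  · intro a
    rw [hψ, hψ, frob_frob hE, frob_add hF, frob_frob hF, add_comm]

/-- Functionals are represented through `ψ`. -/
theorem exists_rep (ψ : E →ₗ[F] F) (hψ : ψ 1 ≠ 0) (l : E →ₗ[F] F) : ∃ c, ∀ a, ψ (a * c) = l a := by
  classical
  haveI : FiniteDimensional F E := Module.Finite.of_finite
  let L : E →ₗ[F] (E →ₗ[F] F) :=
    { toFun := fun c => ψ.comp (LinearMap.mulRight F c)
      map_add' := fun c d => by
        ext a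
        simp [mul_add]
      map_smul' := fun d c => by
        ext a
        simp }
  have hL : ∀ c a, L c a = ψ (a * c) := fun c a => rfl
  have hinj : Function.Injective L := by
    rw [injective_iff_map_eq_zero]
    intro c hc
    by_contra h0
    apply hψ
    have := LinearMap.congr_fun hc c⁻¹
    rw [hL, inv_mul_cancel₀ h0] at this
    exact this
  have hsurj : Function.Surjective L := by
    refine (LinearMap.injective_iff_surjective_of_finrank_eq_finrank ?_).1 hinj
    exact (Subspace.dual_finrank_eq (K := F) (V := E)).symm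
  obtain ⟨c, hc⟩ := hsurj l
  exact ⟨c, fun a => by rw [← hL, hc]⟩

theorem rep_unique (ψ : E →ₗ[F] F) (hψ : ψ 1 ≠ 0) {c c' : E} (h : ∀ a, ψ (a * c) = ψ (a * c')) : c = c' := by
  by_contra h0
  have h1 : c - c' ≠ 0 := sub_ne_zero.mpr h0
  apply hψ
  have h2 := h (c - c')⁻¹
  have h3 : ψ ((c - c')⁻¹ * (c - c')) = 0 := by
    rw [mul_sub, map_sub, h2, sub_self]
  rwa [inv_mul_cancel₀ h1] at h3

/-- The model Hermitian space over `F`. -/
theorem model_space (hF : Fintype.card F = q ^ 2) (hE : Fintype.card E = Q ^ 2) (ψ : E →ₗ[F] F) (hψ1 : ψ 1 ≠ 0)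
    (hψQ : ∀ a, ψ (a ^ Q) = (ψ a) ^ q) (m : ℕ) :
    HSpace q (fun a b : Fin m → E => ψ (Cfsg.hermForm m E Q a b)) where
  add_left x y z := by
    have SE := herm_space (F := E) (q := Q) m hE
    rw [SE.add_left, map_add]
  smul_left a x z := by
    have SE := herm_space (F := E) (q := Q) m hE
    have h1 : a • x = (algebraMap F E a) • x := by
      funext i
      simp [Algebra.smul_def]
    rw [h1, SE.smul_left, ← Algebra.smul_def, map_smul, smul_eq_mul]
  conj x y := by
    have SE := herm_space (F := E) (q := Q) m hE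
    rw [SE.conj x y, hψQ]
  nd x hx := by
    have SE := herm_space (F := E) (q := Q) m hE
    apply SE.nd
    intro y
    by_contra h0
    apply hψ1
    have h1 := hx ((((Cfsg.hermForm m E Q x y)⁻¹) ^ Q) • y)
    rw [SE.smul_right hE, frob_frob hE, inv_mul_cancel₀ h0] at h1
    exact h1

end functional

section herm

variable {F : Type u} [Field F] [Fintype F] {q : ℕ} {E : Type u} [Field E] [Fintype E] [Algebra F E] {Q : ℕ}
  {V : Type u} [AddCommGroup V] [Module F V] {h : V → V → F}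

/-- The `E`-valued form. -/
theorem exists_herm (S : HSpace q h) (hF : Fintype.card F = q ^ 2) (hE : Fintype.card E = Q ^ 2)
    (hQ : ∀ c : F, (algebraMap F E c) ^ Q = algebraMap F E (c ^ q)) (x : E) (hx : x ^ (Q + 1) = 1)
    (hgen : Algebra.adjoin F {x} = ⊤) (ψ : E →ₗ[F] F) (hψ1 : ψ 1 ≠ 0) (hψQ : ∀ a, ψ (a ^ Q) = (ψ a) ^ q)
    (T : V →ₗ[F] V) (hiso : ∀ v w, h (T v) (T w) = h v w) [Module E V] [IsScalarTower F E V]
    (hxT : ∀ v, x • v = T v) :
    ∃ H : V → V → E, HSpace Q H ∧ ∀ v w, ψ (H v w) = h v w := by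
  classical
  have hQ2 := two_le hE
  -- the adjoint relation
  have hadj : ∀ a : E, ∀ v w : V, h (a • v) w = h v (a ^ Q • w) := by
    intro a
    have ha : a ∈ Algebra.adjoin F {x} := by rw [hgen]; trivial
    induction ha using Algebra.adjoin_induction with
    | mem a ha =>
      obtain rfl : a = x := ha
      intro v w
      have h1 : T (a ^ Q • w) = w := by
        rw [← hxT, smul_smul, ← pow_succ', hx, one_smul]
      rw [hxT, ← hiso v (a ^ Q • w), h1]
    | algebraMap c =>
      intro v w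
      rw [hQ, algebraMap_smul, algebraMap_smul, S.smul_left, S.smul_right hF, frob_frob hF]
    | add a b _ _ ha hb =>
      intro v w
      rw [add_smul, S.add_left, ha, hb, frob_add hE, add_smul, S.add_right hF]
    | mul a b _ _ ha hb =>
      intro v w
      rw [mul_smul, ha, hb, mul_pow, mul_comm, mul_smul]
  -- the functional
  have hl : ∀ v w : V, ∃ c : E, ∀ a, ψ (a * c) = h (a • v) w := by
    intro v w
    let l : E →ₗ[F] F :=
      { toFun := fun a => h (a • v) w
        map_add' := fun a b => by rw [add_smul, S.add_left]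
        map_smul' := fun d a => by
          rw [smul_assoc, S.smul_left]
          rfl }
    exact exists_rep ψ hψ1 l
  choose H hH using hl
  have SH : HSpace Q H :=
    { add_left := fun v v' w => by
        apply rep_unique ψ hψ1
        intro a
        rw [hH, mul_add, map_add, hH, hH, smul_add, S.add_left]
      smul_left := fun b v w => by
        apply rep_unique ψ hψ1
        intro a
        rw [hH, ← mul_assoc, hH, mul_smul]
      conj := fun v w => by
        apply rep_unique ψ hψ1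
        intro a
        have h1 : a * (H v w) ^ Q = (a ^ Q * H v w) ^ Q := by
          rw [mul_pow, frob_frob hE]
        rw [hH, h1, hψQ, hH, hadj a w v, ← S.conj]
      nd := fun v hv => by
        apply S.nd
        intro w
        have := hH v w 1
        rw [hv, mul_zero, map_zero, one_smul] at this
        exact this.symm }
  refine ⟨H, SH, fun v w => ?_⟩
  have := hH v w 1
  rwa [one_mul, one_smul] at this

/-- The model of `(V, h, T)`. -/
theorem exists_model_mu [Finite V] (S : HSpace q h) (hF : Fintype.card F = q ^ 2) (hE : Fintype.card E = Q ^ 2)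
    (hQ : ∀ c : F, (algebraMap F E c) ^ Q = algebraMap F E (c ^ q)) (x : E) (hx : x ^ (Q + 1) = 1)
    (hgen : Algebra.adjoin F {x} = ⊤) (ψ : E →ₗ[F] F) (hψ1 : ψ 1 ≠ 0) (hψQ : ∀ a, ψ (a ^ Q) = (ψ a) ^ q)
    (T : V →ₗ[F] V) (hiso : ∀ v w, h (T v) (T w) = h v w) (ρ : E →+* Module.End F V)
    (hρ1 : ∀ c : F, ρ (algebraMap F E c) = c • 1) (hρ2 : ρ x = T) :
    ∃ (m : ℕ) (Θ : (Fin m → E) ≃ₗ[F] V), m * finrank F E = finrank F V ∧
      (∀ a b, h (Θ a) (Θ b) = ψ (Cfsg.hermForm m E Q a b)) ∧ ∀ a, T (Θ a) = Θ (x • a) := by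
  classical
  letI : Module E V := Module.compHom V ρ
  have hsmul : ∀ (a : E) (v : V), a • v = ρ a v := fun a v => rfl
  haveI : IsScalarTower F E V := IsScalarTower.of_algebraMap_smul fun c v => by
    rw [hsmul, hρ1]
    rfl
  haveI : FiniteDimensional F E := Module.Finite.of_finite
  haveI : FiniteDimensional E V := Module.Finite.of_finite
  haveI : FiniteDimensional F V := Module.Finite.of_finite
  obtain ⟨H, SH, hH⟩ := exists_herm S hF hE hQ x hx hgen ψ hψ1 hψQ T hiso (fun v => by rw [hsmul, hρ2])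
  have hfr : finrank F E * finrank E V = finrank F V := Module.finrank_mul_finrank F E V
  obtain ⟨Θ, hΘ⟩ := exists_model SH hE (finrank E V) rfl
  refine ⟨finrank E V, Θ.restrictScalars F, by rw [mul_comm, hfr], fun a b => ?_, fun a => ?_⟩
  · change h (Θ a) (Θ b) = _
    rw [← hH, hΘ]
  · change T (Θ a) = Θ (x • a)
    rw [map_smul, hsmul, hρ2]

end herm

section concrete

variable {F : Type u} [Field F] [Fintype F] {q : ℕ}

/-- The extension field. -/
theorem exists_data (hF : Fintype.card F = q ^ 2) {r : ℕ} (hr : r.Prime) (hr2 : r ≠ 2) (hrq : r ∣ q + 1)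
    {l : F} (hl1 : l ^ (q + 1) = 1) (hl : ∀ b : F, b ^ r ≠ l) :
    ∃ (E : Type u) (_ : Field E) (_ : Fintype E) (_ : Algebra F E) (x : E), finrank F E = r ∧
      Fintype.card E = (q ^ r) ^ 2 ∧ (∀ c : F, (algebraMap F E c) ^ (q ^ r) = algebraMap F E (c ^ q)) ∧
      x ^ (q ^ r + 1) = 1 ∧ Algebra.adjoin F {x} = ⊤ ∧ x ^ r = algebraMap F E l ∧
      ∀ (V : Type u) [AddCommGroup V] [Module F V] (T : V →ₗ[F] V), T ^ r = l • 1 →
        ∃ ρ : E →+* Module.End F V, (∀ c : F, ρ (algebraMap F E c) = c • 1) ∧ ρ x = T := by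
  classical
  have hirr : Irreducible (X ^ r - C l : F[X]) := X_pow_sub_C_irreducible_of_prime hr hl
  haveI : Fact (Irreducible (X ^ r - C l : F[X])) := ⟨hirr⟩
  let f : F[X] := X ^ r - C l
  have hfm : f.Monic := monic_X_pow_sub_C _ hr.ne_zero
  let E := AdjoinRoot f
  haveI hfin : Module.Finite F E := (AdjoinRoot.powerBasis' hfm).finite
  haveI : Finite E := Module.finite_of_finite F
  letI : Fintype E := Fintype.ofFinite E
  have hfr : finrank F E = r := by
    change finrank F (AdjoinRoot f) = r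
    rw [finrank_adjoinRoot _ hfm]
    exact natDegree_X_pow_sub_C
  have hrodd : Odd r := hr.odd_of_ne_two hr2
  have hxr : (AdjoinRoot.root f) ^ r = algebraMap F E l := by
    have h1 : AdjoinRoot.mk f f = 0 := AdjoinRoot.mk_self
    simp only [f, map_sub, map_pow, AdjoinRoot.mk_X, AdjoinRoot.mk_C, sub_eq_zero] at h1
    exact h1
  refine ⟨E, inferInstance, inferInstance, inferInstance, AdjoinRoot.root f, hfr, ?_, ?_, ?_, ?_, hxr, ?_⟩
  · rw [← Nat.card_eq_fintype_card, Module.natCard_eq_pow_finrank (K := F), hfr, Nat.card_eq_fintype_card, hF]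
    ring
  · intro c
    obtain ⟨k, hk⟩ := hrodd
    have h1 : c ^ (q ^ r) = c ^ q := by
      rw [hk, pow_succ, pow_mul, pow_mul, ← hF, FiniteField.pow_card_pow]
    rw [← map_pow, h1, map_pow]
  · -- arithmetic
    have hdvd : (r * (q + 1) : ℤ) ∣ (q : ℤ) ^ r + 1 := by
      have h1 : ((q : ℤ) ^ r + 1) = (∑ i ∈ Finset.range r, (q : ℤ) ^ i * (-1) ^ (r - 1 - i)) * ((q : ℤ) - (-1)) := by
        rw [geom_sum₂_mul, hrodd.neg_one_pow]
        ring
      have h2 : (r : ℤ) ∣ ∑ i ∈ Finset.range r, (q : ℤ) ^ i * (-1) ^ (r - 1 - i) := by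
        rw [dvd_geom_sum₂_iff_of_dvd_sub (by
          have := Int.natCast_dvd_natCast.mpr hrq
          push_cast at this
          simpa using this)]
        exact Dvd.intro _ rfl
      obtain ⟨M, hM⟩ := h2
      rw [h1, hM]
      exact ⟨M, by ring⟩
    obtain ⟨M, hM⟩ := hdvd
    have hM0 : 0 ≤ M := by
      by_contra hneg
      push Not at hneg
      have h3 : (0 : ℤ) < r * (q + 1) := by
        have := hr.pos
        positivity
      have h4 : (r * (q + 1) : ℤ) * M < 0 := mul_neg_of_pos_of_neg h3 hneg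
      have h5 : (0 : ℤ) < (q : ℤ) ^ r + 1 := by positivity
      omega
    obtain ⟨M', rfl⟩ := Int.eq_ofNat_of_zero_le hM0
    have hM' : q ^ r + 1 = r * ((q + 1) * M') := by
      have : ((q ^ r + 1 : ℕ) : ℤ) = ((r * ((q + 1) * M') : ℕ) : ℤ) := by
        push_cast
        rw [hM]
        ring
      exact_mod_cast this
    rw [hM', pow_mul, hxr, pow_mul, ← map_pow, hl1, map_one, one_pow]
  · exact AdjoinRoot.adjoinRoot_eq_top
  · intro V _ _ T hT
    let φ : F[X] →+* Module.End F V := (aeval T).toRingHom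
    have hφ : ∀ a ∈ Ideal.span {f}, φ a = 0 := by
      intro a ha
      obtain ⟨b, rfl⟩ := Ideal.mem_span_singleton'.1 ha
      have h1 : φ f = 0 := by
        change aeval T (X ^ r - C l) = 0
        simp only [map_sub, map_pow, aeval_X, aeval_C, hT, sub_eq_zero]
        rfl
      rw [map_mul, h1, mul_zero]
    refine ⟨Ideal.Quotient.lift (Ideal.span {f}) φ hφ, ?_, ?_⟩
    · intro c
      change Ideal.Quotient.lift (Ideal.span {f}) φ hφ (Ideal.Quotient.mk _ (C c)) = _
      rw [Ideal.Quotient.lift_mk]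
      change aeval T (C c) = _
      rw [aeval_C]
      rfl
    · change Ideal.Quotient.lift (Ideal.span {f}) φ hφ (Ideal.Quotient.mk _ X) = _
      rw [Ideal.Quotient.lift_mk]
      change aeval T X = _
      rw [aeval_X]

/-- Uniqueness in the non-power case. -/
theorem conj_unitary_mu (hF : Fintype.card F = q ^ 2) {r n : ℕ} (hr : r.Prime) (hr2 : r ≠ 2) (hrq : r ∣ q + 1)
    {l : F} (hl1 : l ^ (q + 1) = 1) (hl : ∀ b : F, b ^ r ≠ l)
    (T T' : (Fin n → F) →ₗ[F] (Fin n → F)) (hiso : ∀ x y, Cfsg.hermForm n F q (T x) (T y) = Cfsg.hermForm n F q x y)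
    (hiso' : ∀ x y, Cfsg.hermForm n F q (T' x) (T' y) = Cfsg.hermForm n F q x y)
    (hT : T ^ r = l • 1) (hT' : T' ^ r = l • 1) :
    ∃ P : (Fin n → F) ≃ₗ[F] (Fin n → F), (∀ x y, Cfsg.hermForm n F q (P x) (P y) = Cfsg.hermForm n F q x y) ∧
      ∀ x, P (T x) = T' (P x) := by
  classical
  obtain ⟨E, _, _, _, x, hfr, hE, hQ, hx, hgen, hxr, hρ⟩ := exists_data hF hr hr2 hrq hl1 hl
  obtain ⟨ψ, hψ1, hψQ⟩ := exists_psi hF hE hQ
  have S := herm_space (F := F) (q := q) n hF
  obtain ⟨ρ, hρ1, hρ2⟩ := hρ _ T hT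
  obtain ⟨ρ', hρ1', hρ2'⟩ := hρ _ T' hT'
  obtain ⟨m, Θ, hm, hΘ, hΘT⟩ := exists_model_mu S hF hE hQ x hx hgen ψ hψ1 hψQ T hiso ρ hρ1 hρ2
  obtain ⟨m', Θ', hm', hΘ', hΘT'⟩ := exists_model_mu S hF hE hQ x hx hgen ψ hψ1 hψQ T' hiso' ρ' hρ1' hρ2'
  have hmm : m = m' := by
    have h1 : m * finrank F E = m' * finrank F E := hm.trans hm'.symm
    rw [hfr] at h1
    exact Nat.eq_of_mul_eq_mul_right hr.pos h1
  subst hmm
  refine ⟨Θ.symm.trans Θ', fun u v => ?_, fun u => ?_⟩
  · obtain ⟨a, rfl⟩ := Θ.surjective u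
    obtain ⟨b, rfl⟩ := Θ.surjective v
    simp only [LinearEquiv.trans_apply, LinearEquiv.symm_apply_apply]
    rw [hΘ', hΘ]
  · obtain ⟨a, rfl⟩ := Θ.surjective u
    simp only [LinearEquiv.trans_apply, LinearEquiv.symm_apply_apply]
    rw [hΘT, hΘT', LinearEquiv.symm_apply_apply]

/-- Existence in the non-power case. -/
theorem exists_unitary_mu (hF : Fintype.card F = q ^ 2) {r n m : ℕ} (hr : r.Prime) (hr2 : r ≠ 2) (hrq : r ∣ q + 1)
    {l : F} (hl1 : l ^ (q + 1) = 1) (hl : ∀ b : F, b ^ r ≠ l) (hm : m * r = n) :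
    ∃ T : (Fin n → F) →ₗ[F] (Fin n → F), (∀ x y, Cfsg.hermForm n F q (T x) (T y) = Cfsg.hermForm n F q x y) ∧
      T ^ r = l • 1 := by
  classical
  obtain ⟨E, _, _, _, x, hfr, hE, hQ, hx, hgen, hxr, hρ⟩ := exists_data hF hr hr2 hrq hl1 hl
  obtain ⟨ψ, hψ1, hψQ⟩ := exists_psi hF hE hQ
  have SW := model_space hF hE ψ hψ1 hψQ m
  have SE := herm_space (F := E) (q := q ^ r) m hE
  haveI : FiniteDimensional F E := Module.Finite.of_finite
  have hfin : finrank F (Fin m → E) = n := by
    rw [Module.finrank_pi_fintype]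
    simp [hfr, hm]
  obtain ⟨Θ, hΘ⟩ := exists_model SW hF n hfin
  let M : (Fin m → E) →ₗ[F] (Fin m → E) :=
    { toFun := fun a => x • a
      map_add' := smul_add x
      map_smul' := fun c a => smul_comm x c a }
  have hM : ∀ a, M a = x • a := fun a => rfl
  let T : (Fin n → F) →ₗ[F] (Fin n → F) := Θ.symm.toLinearMap ∘ₗ M ∘ₗ Θ.toLinearMap
  have hT : ∀ u, Θ (T u) = x • Θ u := fun u => by
    change Θ (Θ.symm (M (Θ u))) = _
    rw [LinearEquiv.apply_symm_apply, hM]
  refine ⟨T, fun u v => ?_, ?_⟩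
  · rw [← hΘ, ← hΘ, hT, hT, SE.smul_left, SE.smul_right hE]
    have h1 : x * (x ^ (q ^ r) * Cfsg.hermForm m E (q ^ r) (Θ u) (Θ v)) = Cfsg.hermForm m E (q ^ r) (Θ u) (Θ v) := by
      rw [← mul_assoc, ← pow_succ', hx, one_mul]
    rw [h1]
  · have hpow : ∀ (s : ℕ) (u : Fin n → F), Θ ((T ^ s) u) = x ^ s • Θ u := by
      intro s
      induction s with
      | zero => intro u; simp
      | succ s ih =>
        intro u
        rw [pow_succ', Module.End.mul_apply, hT, ih, smul_smul, pow_succ']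
    apply LinearMap.ext
    intro u
    apply Θ.injective
    rw [hpow, hxr, algebraMap_smul]
    simp

end concrete

end Cfsg.Agent.Lib.PGUr
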