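/-
Conjugacy in `GU_n(q)` of isometries with `g^r` scalar.
-/
import Cfsg.Agent.Lib.PGUr.Model
import Cfsg.Agent.S0783

set_option autoImplicit false
set_option linter.unusedSectionVars false

namespace Cfsg.Agent.Lib.PGUr

open Polynomial Module Matrix
open Cfsg.Agent.Lib.MatConj.Tg Cfsg.Agent.Lib.HermCount.Field Cfsg.Agent.Lib.HermCount.Space
  Cfsg.Agent.Lib.Witt.HermModel Cfsg.Agent.Lib.PGLr
open Cfsg.Agent.Lib.HermCount.Lines (herm_space)

universe u

section gen

/-- Conjugacy in the central quotient. -/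
theorem conj_quot_gen {G : Type*} [Group G] {a b : G}
    (h : IsConj (a : G ⧸ Subgroup.center G) (b : G ⧸ Subgroup.center G)) :
    ∃ z ∈ Subgroup.center G, IsConj a (z * b) := by
  obtain ⟨x, hx⟩ := isConj_iff.mp h
  obtain ⟨P, rfl⟩ := QuotientGroup.mk_surjective x
  have h1 : ((P * a * P⁻¹ : G) : G ⧸ Subgroup.center G) = b := by
    simpa [QuotientGroup.mk_mul, QuotientGroup.mk_inv] using hx
  rw [QuotientGroup.eq] at h1
  have hz := Subgroup.inv_mem _ h1
  refine ⟨_, hz, isConj_iff.mpr ⟨P, ?_⟩⟩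
  have h4 := (Subgroup.mem_center_iff.mp hz) b
  rw [← h4, _root_.mul_inv_rev, inv_inv]
  group

theorem mk_conj_gen {G : Type*} [Group G] {a b c z : G} (h : IsConj a b) (hz : z ∈ Subgroup.center G)
    (hb : b = z * c) : IsConj (a : G ⧸ Subgroup.center G) (c : G ⧸ Subgroup.center G) := by
  have h1 := MonoidHom.map_isConj (QuotientGroup.mk' (Subgroup.center G)) h
  have h2 : ((b : G) : G ⧸ Subgroup.center G) = (c : G ⧸ Subgroup.center G) := by
    rw [QuotientGroup.eq, hb]
    have h3 := (Subgroup.mem_center_iff.mp hz) c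
    rw [← h3, _root_.mul_inv_rev, inv_mul_cancel_right]
    exact Subgroup.inv_mem _ hz
  rw [← h2]
  exact h1

end gen

variable {F : Type u} [Field F] [Fintype F] {q n : ℕ}

theorem iso_of_mem (g : ↥(Cfsg.GU n F q)) (x y : Fin n → F) :
    Cfsg.hermForm n F q (Tg g.1 x) (Tg g.1 y) = Cfsg.hermForm n F q x y := g.2 x y

theorem isConj_of_intertwine (hF : Fintype.card F = q ^ 2) (g g' : ↥(Cfsg.GU n F q))
    (P : (Fin n → F) →ₗ[F] (Fin n → F))
    (hiso : ∀ x y, Cfsg.hermForm n F q (P x) (P y) = Cfsg.hermForm n F q x y)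
    (hP : ∀ x, P (Tg g.1 x) = Tg g'.1 (P x)) : IsConj g g' := by
  obtain ⟨A, hA⟩ := exists_GU_of_isometry hF P hiso
  rw [isConj_iff]
  refine ⟨A, ?_⟩
  have h1 : A * g = g' * A := by
    apply Subtype.ext
    apply Units.ext
    apply Matrix.mulVec_injective
    funext x
    have h2 := hP x
    simp only [Tg_apply, ← hA] at h2
    simpa [Matrix.mulVec_mulVec] using h2
  rw [h1]
  group

/-- Eigenspaces of diagonal matrices. -/
theorem dm_diag (φ : Fin n → F) (y : F) :
    dm (Matrix.mulVecLin (Matrix.diagonal φ)) y = Nat.card {i // φ i = y} := by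
  classical
  have h1 : Matrix.mulVecLin (Matrix.diagonal φ) - y • 1 = Matrix.mulVecLin (Matrix.diagonal fun i => φ i - y) := by
    apply LinearMap.ext
    intro x
    funext i
    simp [Matrix.mulVec_diagonal, sub_mul]
  have h2 := LinearMap.finrank_range_add_finrank_ker (Matrix.mulVecLin (Matrix.diagonal fun i => φ i - y))
  have h3 : finrank F (LinearMap.range (Matrix.mulVecLin (Matrix.diagonal fun i => φ i - y))) =
      Fintype.card {i // φ i - y ≠ 0} := by
    have := Matrix.rank_diagonal (fun i => φ i - y)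
    rw [Matrix.rank] at this
    convert this
  rw [h3, Module.finrank_fintype_fun_eq_card, Fintype.card_fin] at h2
  have h4 : Fintype.card {i // φ i - y ≠ 0} + Fintype.card {i // φ i = y} = n := by
    have h5 := Fintype.card_subtype_compl (fun i => φ i = y)
    have h7 := Fintype.card_subtype_le (fun i => φ i = y)
    rw [Fintype.card_fin] at h5 h7
    have h6 : Fintype.card {i // φ i - y ≠ 0} = Fintype.card {i // ¬ φ i = y} :=
      Fintype.card_congr (Equiv.subtypeEquivRight fun i => by rw [Ne, sub_eq_zero])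
    omega
  unfold dm
  rw [h1, Nat.card_eq_fintype_card]
  omega

/-- Intertwining on a basis. -/
theorem intertwine_of_basis {V : Type u} [AddCommGroup V] [Module F V] (T : V →ₗ[F] V)
    (ψ : (Fin n → F) →ₗ[F] V) (φ : Fin n → F) (hT : ∀ i, T (ψ (Pi.single i 1)) = φ i • ψ (Pi.single i 1))
    (u : Fin n → F) : T (ψ u) = ψ (Matrix.mulVecLin (Matrix.diagonal φ) u) := by
  classical
  have : T ∘ₗ ψ = ψ ∘ₗ Matrix.mulVecLin (Matrix.diagonal φ) := by
    apply LinearMap.pi_ext
    intro i x
    have h1 : (Pi.single i x : Fin n → F) = x • Pi.single i 1 := by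
      funext j
      by_cases hj : j = i
      · subst hj; simp
      · simp [Pi.single_apply, hj]
    have h2 : Matrix.mulVecLin (Matrix.diagonal φ) (Pi.single i x) = (x * φ i) • (Pi.single i 1 : Fin n → F) := by
      funext j
      by_cases hj : j = i
      · subst hj
        simp [Matrix.mulVec_diagonal, mul_comm]
      · simp [Matrix.mulVec_diagonal, Pi.single_apply, hj]
    simp only [LinearMap.comp_apply]
    rw [h2, h1, map_smul, map_smul, hT, map_smul, smul_smul]
  exact LinearMap.congr_fun this u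

/-- Isometries with `g^r = 1` are determined by their eigenspace dimensions. -/
theorem conj_of_dm_unitary (hF : Fintype.card F = q ^ 2) {r : ℕ} (hr : 0 < r) (hrF : (r : F) ≠ 0) {ω : F}
    (hω : IsPrimitiveRoot ω r) (hrq : r ∣ q + 1) (g g' : ↥(Cfsg.GU n F q)) (hg : g ^ r = 1) (hg' : g' ^ r = 1)
    (h : ∀ y : F, y ^ r = 1 → dm (Tg g.1) y = dm (Tg g'.1) y) : IsConj g g' := by
  classical
  have S := herm_space (F := F) (q := q) n hF
  have hfin : finrank F (Fin n → F) = n := by simp
  have hT : Tg g.1 ^ r = 1 := by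
    rw [Tg_pow]
    have : g.1 ^ r = 1 := by
      have := congrArg Subtype.val hg
      simpa using this
    rw [this, Tg_one]
  have hT' : Tg g'.1 ^ r = 1 := by
    rw [Tg_pow]
    have : g'.1 ^ r = 1 := by
      have := congrArg Subtype.val hg'
      simpa using this
    rw [this, Tg_one]
  obtain ⟨b, φ, hb, hbT, hφ⟩ := exists_ortho_eigen hF hr hrF hω hrq n _ _ S hfin (Tg g.1) (iso_of_mem g) hT
  obtain ⟨b', φ', hb', hbT', hφ'⟩ := exists_ortho_eigen hF hr hrF hω hrq n _ _ S hfin (Tg g'.1) (iso_of_mem g') hT'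
  obtain ⟨ψ, hψ, hψi⟩ := exists_ortho_equiv S hF n hfin b hb
  obtain ⟨ψ', hψ', hψi'⟩ := exists_ortho_equiv S hF n hfin b' hb'
  have hcard : ∀ y : F, Nat.card {i // φ i = y} = Nat.card {i // φ' i = y} := by
    intro y
    by_cases hy : y ^ r = 1
    · have h1 := dm_of_conj (Matrix.mulVecLin (Matrix.diagonal φ)) (Tg g.1) ψ (fun u =>
        (intertwine_of_basis (Tg g.1) ψ.toLinearMap φ (by
          intro i
          change Tg g.1 (ψ _) = φ i • ψ _
          rw [hψ, hbT]) u).symm) y
      have h2 := dm_of_conj (Matrix.mulVecLin (Matrix.diagonal φ')) (Tg g'.1) ψ' (fun u =>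
        (intertwine_of_basis (Tg g'.1) ψ'.toLinearMap φ' (by
          intro i
          change Tg g'.1 (ψ' _) = φ' i • ψ' _
          rw [hψ', hbT']) u).symm) y
      rw [dm_diag] at h1 h2
      rw [h1, h2, h y hy]
    · have h1 : ∀ {φ'' : Fin n → F}, (∀ i, φ'' i ^ r = 1) → Nat.card {i // φ'' i = y} = 0 := by
        intro φ'' hφ''
        haveI : IsEmpty {i // φ'' i = y} := ⟨fun i => hy (i.2 ▸ hφ'' i.1)⟩
        exact Nat.card_of_isEmpty
      rw [h1 hφ, h1 hφ']
  -- the permutation
  let σ : Fin n ≃ Fin n := Equiv.ofFiberEquiv (f := φ) (g := φ') fun y =>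
    ((Finite.equivFinOfCardEq (hcard y)).trans (Finite.equivFinOfCardEq rfl).symm)
  have hσ : ∀ i, φ' (σ i) = φ i := fun i => Equiv.ofFiberEquiv_map _ i
  have hb'' : ∀ i j, Cfsg.hermForm n F q (b' (σ i)) (b' (σ j)) = if i = j then 1 else 0 := by
    intro i j
    rw [hb']
    simp only [σ.injective.eq_iff]
  obtain ⟨ψ'', hψ'', hψi''⟩ := exists_ortho_equiv S hF n hfin (fun i => b' (σ i)) hb''
  have h1 := intertwine_of_basis (Tg g.1) ψ.toLinearMap φ (by
    intro i
    change Tg g.1 (ψ _) = φ i • ψ _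
    rw [hψ, hbT])
  have h2 := intertwine_of_basis (Tg g'.1) ψ''.toLinearMap φ (by
    intro i
    change Tg g'.1 (ψ'' _) = φ i • ψ'' _
    rw [hψ'', hbT', hσ])
  refine isConj_of_intertwine hF g g' (ψ.symm.trans ψ'').toLinearMap (fun u v => ?_) (fun x => ?_)
  · obtain ⟨a, rfl⟩ := ψ.surjective u
    obtain ⟨c, rfl⟩ := ψ.surjective v
    simp only [LinearEquiv.coe_coe, LinearEquiv.trans_apply, LinearEquiv.symm_apply_apply]
    rw [hψi'', hψi]
  · obtain ⟨a, rfl⟩ := ψ.surjective x
    have h3 := h1 a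
    have h4 := h2 a
    simp only [LinearEquiv.coe_coe] at h3 h4
    simp only [LinearEquiv.coe_coe, LinearEquiv.trans_apply, LinearEquiv.symm_apply_apply]
    rw [h3, h4, LinearEquiv.symm_apply_apply]

/-- Elements with prescribed eigenspace dimensions. -/
theorem exists_tuple_unitary (hF : Fintype.card F = q ^ 2) {r : ℕ} (hrq : r ∣ q + 1) {ι : Type*} [Fintype ι]
    [DecidableEq ι] (e : ι → F) (he : Function.Injective e) (he1 : ∀ j, e j ^ r = 1) (a : ι → ℕ)
    (hsum : ∑ j, a j = n) :
    ∃ g : ↥(Cfsg.GU n F q), g ^ r = 1 ∧ ∀ j, dm (Tg g.1) (e j) = a j := by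
  classical
  have hcard : Fintype.card (Σ j, Fin (a j)) = Fintype.card (Fin n) := by
    rw [Fintype.card_sigma]
    simp [hsum]
  let ε : (Σ j, Fin (a j)) ≃ Fin n := Fintype.equivOfCardEq hcard
  let d : Fin n → F := fun i => e (ε.symm i).1
  have hdq : ∀ i, d i ^ (q + 1) = 1 := by
    intro i
    obtain ⟨t, ht⟩ := hrq
    rw [ht, pow_mul, he1, one_pow]
  let T : (Fin n → F) →ₗ[F] (Fin n → F) := Matrix.mulVecLin (Matrix.diagonal d)
  have hTa : ∀ x i, T x i = d i * x i := by
    intro x i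
    change (Matrix.diagonal d *ᵥ x) i = _
    rw [Matrix.mulVec_diagonal]
  have hiso : ∀ x y, Cfsg.hermForm n F q (T x) (T y) = Cfsg.hermForm n F q x y := by
    intro x y
    unfold Cfsg.hermForm
    refine Finset.sum_congr rfl fun i _ => ?_
    rw [hTa, hTa, mul_pow]
    have := hdq i
    rw [pow_succ] at this
    linear_combination (x i * y i ^ q) * this
  obtain ⟨A, hA⟩ := exists_GU_of_isometry hF T hiso
  have hAd : (A.1 : Matrix (Fin n) (Fin n) F) = Matrix.diagonal d := by
    apply Matrix.mulVec_injective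
    funext x
    rw [hA]
    rfl
  have hTA : Tg A.1 = T := by
    apply LinearMap.ext
    intro x
    rw [Tg_apply, hA]
  refine ⟨A, ?_, fun j => ?_⟩
  · apply Subtype.ext
    apply Units.ext
    have h1 : (((A ^ r : ↥(Cfsg.GU n F q)) : GL (Fin n) F) : Matrix (Fin n) (Fin n) F) =
        (A.1 : Matrix (Fin n) (Fin n) F) ^ r := by
      simp
    rw [h1, hAd, Matrix.diagonal_pow]
    have h2 : d ^ r = 1 := by
      funext i
      exact he1 _
    rw [h2]
    simp
  · rw [hTA, dm_diag]
    have e1 : Fin (a j) ≃ {i // d i = e j} :=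
      Equiv.ofBijective (fun x => ⟨ε ⟨j, x⟩, by simp [d]⟩) (by
        constructor
        · intro x y hxy
          have h1 := ε.injective (congrArg Subtype.val hxy)
          simpa using h1
        · rintro ⟨i, hi⟩
          have hi' : (ε.symm i).1 = j := he hi
          obtain ⟨k, hk⟩ : ∃ k, ε.symm i = k := ⟨_, rfl⟩
          obtain ⟨k1, k2⟩ := k
          rw [hk] at hi'
          subst hi'
          exact ⟨k2, Subtype.ext (by
            change ε _ = i
            rw [← hk, Equiv.apply_symm_apply])⟩)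
    rw [← Nat.card_congr e1, Nat.card_eq_fintype_card, Fintype.card_fin]

/-- The centre of `GU`. -/
theorem mem_center_GU (hF : Fintype.card F = q ^ 2) (hn : 2 ≤ n) (z : ↥(Cfsg.GU n F q)) :
    z ∈ Subgroup.center ↥(Cfsg.GU n F q) ↔ ∃ c : Fˣ, c ^ (q + 1) = 1 ∧ sc n c = z.1 := by
  constructor
  · intro hz
    obtain ⟨μ, hμ, hZ⟩ := Cfsg.Agent.S0783.center_scalar hF hn z hz
    have hμ0 : μ ≠ 0 := by
      rintro rfl
      rw [zero_pow (by omega)] at hμ
      exact zero_ne_one hμ
    refine ⟨Units.mk0 μ hμ0, Units.ext ?_, Units.ext ?_⟩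
    · simpa using hμ
    · rw [hZ]
      simp [Matrix.scalar_apply]
  · rintro ⟨c, -, hc⟩
    rw [Subgroup.mem_center_iff]
    intro g
    apply Subtype.ext
    change g.1 * z.1 = z.1 * g.1
    rw [← hc, sc_comm]

theorem mem_center_of_sc (z : ↥(Cfsg.GU n F q)) (c : Fˣ) (hc : sc n c = z.1) :
    z ∈ Subgroup.center ↥(Cfsg.GU n F q) := by
  rw [Subgroup.mem_center_iff]
  intro g
  apply Subtype.ext
  change g.1 * z.1 = z.1 * g.1
  rw [← hc, sc_comm]

/-- Scalars of norm one are isometries. -/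
theorem sc_mem_GU {c : Fˣ} (hc : c ^ (q + 1) = 1) : sc n c ∈ Cfsg.GU n F q := by
  have hc' : (c : F) ^ (q + 1) = 1 := by
    have := congrArg Units.val hc
    simpa using this
  intro x y
  change Cfsg.hermForm n F q (Tg (sc n c) x) (Tg (sc n c) y) = _
  rw [Tg_sc]
  unfold Cfsg.hermForm
  refine Finset.sum_congr rfl fun i _ => ?_
  simp only [LinearMap.smul_apply, Module.End.one_apply, Pi.smul_apply, smul_eq_mul, mul_pow]
  rw [pow_succ] at hc'
  linear_combination (x i * y i ^ q) * hc'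

end Cfsg.Agent.Lib.PGUr
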